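import Mathlib
import Cfsg.Agent.Lib.Helper18.CTDefs

/-!
# Project CT (helper18, S4699): piece SCHUR
-/

set_option autoImplicit false

namespace Cfsg.Agent.Lib.Helper18.CT

variable {G : Type*} [Group G] {F : Type*} [Field F] {V : Type*} [AddCommGroup V] [Module F V]

-- piece SCHUR
theorem schur (ρ : Representation F G V) (hirr : ρ.IsIrreducible) (d : Module.End F V)
    (hd : ∀ g : G, d * ρ g = ρ g * d) : d = 0 ∨ IsUnit d := by
  have := hirr
  let f : Representation.IntertwiningMap ρ ρ := ⟨d, fun g => hd g⟩
  rcases Representation.IsIrreducible.bijective_or_eq_zero f with h | h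
  · right
    exact (Module.End.isUnit_iff d).2 h
  · left
    have h1 : f.toLinearMap = (0 : Representation.IntertwiningMap ρ ρ).toLinearMap := by rw [h]
    exact h1

theorem nontriv (ρ : Representation F G V) (hirr : ρ.IsIrreducible) : Nontrivial V := by
  by_contra hV
  rw [not_nontrivial_iff_subsingleton] at hV
  have := hirr
  obtain ⟨a, b, hab⟩ := (inferInstance : Nontrivial (Subrepresentation ρ))
  apply hab
  apply Subrepresentation.toSubmodule_injective
  ext x
  have hx : x = 0 := Subsingleton.elim x 0
  rw [hx]
  simp

end Cfsg.Agent.Lib.Helper18.CT
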