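import Cfsg.Agent.Lib.Helper96.HyDefs
import Cfsg.Agent.Lib.Helper51.HypPairs
import Cfsg.Prelude.Def_GeometricClasses
import Cfsg.Prelude.Def_Classical

/-!
Project HY (S5992, helper96), piece EXT: an isometry of a nondegenerate subspace `H` without
nonzero fixed vectors extends (by the identity on the orthogonal complement) to an isometry of
the whole space, whose fixed space is the orthogonal complement of `H`.
-/

set_option autoImplicit false
set_option linter.unusedSectionVars false
set_option linter.unusedVariables false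

namespace Cfsg.Agent.Lib.Helper80.Hy

open Module Polynomial Cfsg.Agent.Lib.Helper96.Sp Cfsg.Agent.Lib.Helper96.Hy
  Cfsg.Agent.Lib.Helper47

universe u

variable {F : Type u} [Field F] [Fintype F] {V : Type u} [AddCommGroup V] [Module F V]
  [FiniteDimensional F V] {B : LinearMap.BilinForm F V}

theorem ext_isCompl (hS : B.IsSymm) (H : Submodule F V) (hH : ND B H) :
    IsCompl H (B.orthogonal H) := by
  refine (LinearMap.BilinForm.isCompl_orthogonal_iff_disjoint hS.isRefl).mpr ?_
  rw [disjoint_iff, eq_bot_iff]
  rintro u ⟨hu1, hu2⟩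
  rw [Submodule.mem_bot]
  apply hH u hu1
  intro v hv
  have h1 := (LinearMap.BilinForm.mem_orthogonal_iff.mp hu2) v hv
  have h2 : B v u = 0 := h1
  rw [hS.eq u v]
  exact h2

theorem ext_polar (hS : B.IsSymm) (h2 : (2 : F) ≠ 0) (H : Submodule F V)
    (g : Module.End F ↥H) (hg : ∀ v : H, B (g v : V) (g v : V) = B (v : V) (v : V))
    (v w : H) : B (g v : V) (g w : V) = B (v : V) (w : V) := by
  have h1 := hg (v + w)
  have e1 : B (g w : V) (g v : V) = B (g v : V) (g w : V) := by
    have := hS.eq (g w : V) (g v : V)
    simpa using this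
  have e2 : B (w : V) (v : V) = B (v : V) (w : V) := by
    have := hS.eq (w : V) (v : V)
    simpa using this
  rw [map_add] at h1
  simp only [Submodule.coe_add, map_add, LinearMap.add_apply] at h1
  rw [hg v, hg w, e1, e2] at h1
  have h3 : (2 : F) * B (g v : V) (g w : V) = 2 * B (v : V) (w : V) := by
    linear_combination h1
  exact mul_left_cancel₀ h2 h3

theorem exists_ext (hS : B.IsSymm) (h2 : (2 : F) ≠ 0) (H : Submodule F V) (hH : ND B H)
    (g : Module.End F ↥H) (hg : ∀ v : H, B (g v : V) (g v : V) = B (v : V) (v : V)) (r : ℕ)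
    (hgr : g ^ r = 1) (hfix : ∀ v : H, g v = v → v = 0) :
    ∃ T : Module.End F V, Isom B T ∧ T ^ r = 1 ∧ (∀ v : H, T (v : V) = (g v : V)) ∧
      finrank F (LinearMap.ker (T - 1)) + finrank F H = finrank F V := by
  have hc := ext_isCompl hS H hH
  have hpol := ext_polar hS h2 H g hg
  set K := B.orthogonal H with hK
  set P : V →ₗ[F] H := Submodule.projectionOnto H K hc with hP
  -- the complement component
  have hPH : ∀ v : H, P (v : V) = v := fun v =>
    Submodule.projectionOnto_apply_left hc v
  have hPK : ∀ v : V, P v = 0 ↔ v ∈ K := fun v =>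
    Submodule.projectionOnto_apply_eq_zero_iff hc
  have hres : ∀ v : V, v - (P v : V) ∈ K := by
    intro v
    rw [← hPK, map_sub, hPH, sub_self]
  have horth1 : ∀ (h : H) (k : V), k ∈ K → B (h : V) k = 0 := by
    intro h k hk
    exact (LinearMap.BilinForm.mem_orthogonal_iff.mp hk) (h : V) h.2
  have horth2 : ∀ (h : H) (k : V), k ∈ K → B k (h : V) = 0 := by
    intro h k hk
    have h3 := horth1 h k hk
    rw [hS.eq k (h : V)]
    exact h3
  set T : Module.End F V := H.subtype ∘ₗ g ∘ₗ P + (LinearMap.id - H.subtype ∘ₗ P) with hT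
  have hTapp : ∀ v : V, T v = (g (P v) : V) + (v - (P v : V)) := by
    intro v
    simp [hT]
  have hPT : ∀ v : V, P (T v) = g (P v) := by
    intro v
    rw [hTapp, map_add, hPH, (hPK _).mpr (hres v), add_zero]
  have hTres : ∀ v : V, T v - (P (T v) : V) = v - (P v : V) := by
    intro v
    rw [hPT, hTapp]
    abel
  have hpow : ∀ (n : ℕ) (v : V), (T ^ n) v = ((g ^ n) (P v) : V) + (v - (P v : V)) := by
    intro n
    induction n with
    | zero =>
      intro v
      simp
    | succ n ih =>
      intro v
      rw [pow_succ, Module.End.mul_apply, ih (T v), hTres, hPT, pow_succ, Module.End.mul_apply]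
  refine ⟨T, ?_, ?_, ?_, ?_⟩
  · intro x y
    rw [hTapp, hTapp]
    have hx : x = (P x : V) + (x - (P x : V)) := by abel
    have hy : y = (P y : V) + (y - (P y : V)) := by abel
    conv_rhs => rw [hx, hy]
    simp only [map_add, LinearMap.add_apply]
    rw [hpol, horth1 _ _ (hres y), horth2 _ _ (hres x), horth1 _ _ (hres y),
      horth2 _ _ (hres x)]
  · apply LinearMap.ext
    intro v
    rw [hpow, hgr]
    simp
  · intro v
    rw [hTapp, hPH, sub_self, add_zero]
  · have hker : LinearMap.ker (T - 1) = K := by
      ext v
      rw [LinearMap.mem_ker, LinearMap.sub_apply, Module.End.one_apply, sub_eq_zero, hTapp]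
      constructor
      · intro h
        have h3 : (g (P v) : V) = (P v : V) := by
          have : (g (P v) : V) + (v - (P v : V)) - (v - (P v : V)) = v - (v - (P v : V)) := by
            rw [h]
          simpa using this
        have h4 : g (P v) = P v := Subtype.ext h3
        exact (hPK v).mp (hfix _ h4)
      · intro h
        rw [(hPK v).mpr h]
        simp
    rw [hker, add_comm]
    exact Submodule.finrank_add_eq_of_isCompl hc

end Cfsg.Agent.Lib.Helper80.Hy
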