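import Mathlib
import Cfsg.Agent.Lib.Helper67.DGGD
import Cfsg.Agent.Lib.Helper82.Major
import Cfsg.Agent.Lib.Helper92.DOCL5
import Cfsg.Agent.Lib.Helper81.BrMax
import Cfsg.Agent.Lib.Helper81.BrSubgrp
import Cfsg.Agent.Lib.Helper81.BrPair
import Cfsg.Agent.Lib.Helper33.KleinPair

set_option autoImplicit false
set_option linter.style.haveILetI false
set_option maxHeartbeats 1600000

/-!
Piece SETUP of the DG project (S4507, job 1377): for a block of positive defect of a group whose
order is divisible by `p` exactly once, a Sylow `p`-subgroup `P` that is a defect group, a root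
`b` in `C_G(P)`, its canonical character `θ` and the stabilizer `T` of `θ` in `N_G(P)`.
-/

namespace Cfsg.Agent.Lib.Helper80.DG

open Cfsg

section

variable {G : Type*} [Group G] [Fintype G]

/-- PIECE SETUP -/
theorem exists_setup (p : ℕ) [Fact p.Prime] (M : Ideal AlgInt) (hM : IsPModular p M)
    (hdiv : p ∣ Nat.card G) (hsq : ¬ p ^ 2 ∣ Nat.card G)
    (B : Set (IrrCharacter G)) (hB : IsPBlock M B) (hd : 0 < blockDefect p B) :
    ∃ (P : Sylow p G)
      (b : Set (IrrCharacter (Subgroup.centralizer ((P : Subgroup G) : Set G))))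
      (θ : IrrCharacter (Subgroup.centralizer ((P : Subgroup G) : Set G))) (T : Subgroup G),
      Nat.card P = p ∧ IsDefectGroup p M B P ∧
      IsInducedBlock M (Subgroup.centralizer ((P : Subgroup G) : Set G)) b B ∧ θ ∈ b ∧
      (∀ x : Subgroup.centralizer ((P : Subgroup G) : Set G),
        (x : G) ∈ (P : Subgroup G) → θ.1 x = θ.1 1) ∧
      (∀ g : G, g ∈ T ↔ (g ∈ Subgroup.normalizer ((P : Subgroup G) : Set G) ∧
        ∀ c c' : Subgroup.centralizer ((P : Subgroup G) : Set G), (c' : G) = g * c * g⁻¹ →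
          θ.1 c' = θ.1 c)) := by
  classical
  have hp : p.Prime := Fact.out
  have hne : Nat.card G ≠ 0 := Nat.card_pos.ne'
  have hfac : (Nat.card G).factorization p = 1 := by
    have h1 : 1 ≤ (Nat.card G).factorization p :=
      (hp.dvd_iff_one_le_factorization hne).mp hdiv
    have h2 : ¬ 2 ≤ (Nat.card G).factorization p :=
      fun h => hsq ((hp.pow_dvd_iff_le_factorization hne).mpr h)
    omega
  have hdef : blockDefect p B = 1 := by
    have h1 : blockDefect p B ≤ (Nat.card G).factorization p := by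
      unfold blockDefect
      exact Nat.sub_le _ _
    omega
  obtain ⟨D, u, hmax⟩ := Cfsg.Agent.Lib.Helper81.exists_maximalBrauerPair hM B hB
  have hDdef := Cfsg.Agent.Lib.Helper81.isDefectGroup_of_maximal hM B D u hmax
  have hcard : Nat.card D = p := by
    rw [Cfsg.Agent.Lib.Helper82.card_defectGroup hM B hB D hDdef, hdef, pow_one]
  have hDp : IsPGroup p D := hmax.1.1.1
  have hind :=
    (Cfsg.Agent.Lib.Helper81.isBrauerPairOf_iff_isInducedBlock hM D hDp u B).mp hmax.1
  obtain ⟨P, hP⟩ : ∃ P : Sylow p G, (P : Subgroup G) = D :=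
    ⟨Sylow.ofCard D (by rw [hcard, hfac, pow_one]), rfl⟩
  subst hP
  have hPcard : Nat.card P = p := hcard
  obtain ⟨z, hz, hz1⟩ : ∃ z ∈ (P : Subgroup G), z ≠ 1 := by
    by_contra hno
    push Not at hno
    have h1 : (P : Subgroup G) = ⊥ := (Subgroup.eq_bot_iff_forall _).mpr hno
    rw [h1, Subgroup.card_bot] at hcard
    exact hp.one_lt.ne hcard
  have hzo := Cfsg.Agent.Lib.Helper92.DO.cf_order p P hPcard z hz hz1
  have hzp := Cfsg.Agent.Lib.Helper92.DO.cf_zpowers p P hPcard z hz hz1
  have hzc : z ∈ Subgroup.centralizer ((P : Subgroup G) : Set G) := by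
    rw [Subgroup.mem_centralizer_iff]
    intro x hx
    have hx' : x ∈ Subgroup.zpowers z := by rw [← hzp]; exact hx
    obtain ⟨k, rfl⟩ := Subgroup.mem_zpowers_iff.mp hx'
    exact ((Commute.refl z).zpow_left k).eq
  letI : Fintype (Subgroup.centralizer ((P : Subgroup G) : Set G)) := Fintype.ofFinite _
  have hfinI : Finite (IrrCharacter (Subgroup.centralizer ((P : Subgroup G) : Set G))) :=
    Cfsg.Agent.Lib.Helper4.irr_finite
  letI : Fintype (IrrCharacter (Subgroup.centralizer ((P : Subgroup G) : Set G))) :=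
    Fintype.ofFinite _
  have hzcen : (⟨z, hzc⟩ : Subgroup.centralizer ((P : Subgroup G) : Set G)) ∈
      Subgroup.center (Subgroup.centralizer ((P : Subgroup G) : Set G)) := by
    rw [Subgroup.mem_center_iff]
    intro h
    apply Subtype.ext
    simp only [Subgroup.coe_mul]
    exact (Subgroup.mem_centralizer_iff.mp h.2 z hz).symm
  have hCH : Subgroup.centralizer ({z} : Set G) ≤
      Subgroup.centralizer ((P : Subgroup G) : Set G) := by
    rw [Cfsg.Agent.Lib.Helper33.Klein.centralizer_singleton_eq, ← hzp]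
  obtain ⟨θ, hθb, hθ⟩ := Cfsg.Agent.Lib.Helper67.DG.exists_canon
    (Subgroup.centralizer ((P : Subgroup G) : Set G)) hM ⟨z, hzc⟩ hzcen hzo hCH u B hind hdef
  have hconj : ∀ h : G, h ∈ Subgroup.normalizer ((P : Subgroup G) : Set G) →
      ∀ c : G, c ∈ Subgroup.centralizer ((P : Subgroup G) : Set G) →
        h * c * h⁻¹ ∈ Subgroup.centralizer ((P : Subgroup G) : Set G) := by
    intro h hh c hc
    rw [Subgroup.mem_centralizer_iff]
    intro d hd
    have hd' : h⁻¹ * d * h ∈ (P : Subgroup G) :=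
      (Subgroup.mem_normalizer_iff''.mp hh d).mp hd
    have h1 : (h⁻¹ * d * h) * c = c * (h⁻¹ * d * h) :=
      Subgroup.mem_centralizer_iff.mp hc _ hd'
    calc d * (h * c * h⁻¹) = h * ((h⁻¹ * d * h) * c) * h⁻¹ := by group
      _ = h * (c * (h⁻¹ * d * h)) * h⁻¹ := by rw [h1]
      _ = h * c * h⁻¹ * d := by group
  let T : Subgroup G :=
    { carrier := {g | g ∈ Subgroup.normalizer ((P : Subgroup G) : Set G) ∧
        ∀ c c' : Subgroup.centralizer ((P : Subgroup G) : Set G), (c' : G) = g * c * g⁻¹ →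
          θ.1 c' = θ.1 c}
      mul_mem' := by
        rintro g h ⟨hg, hgθ⟩ ⟨hh, hhθ⟩
        refine ⟨mul_mem hg hh, ?_⟩
        intro c c' hc
        have hmem := hconj h hh c c.2
        rw [hgθ ⟨h * c * h⁻¹, hmem⟩ c' (by rw [hc]; simp [mul_assoc]),
          hhθ c ⟨h * c * h⁻¹, hmem⟩ rfl]
      one_mem' := by
        refine ⟨one_mem _, ?_⟩
        intro c c' hc
        have h1 : c' = c := Subtype.ext (by rw [hc]; simp)
        rw [h1]
      inv_mem' := by
        rintro g ⟨hg, hgθ⟩
        refine ⟨inv_mem hg, ?_⟩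
        intro c c' hc
        exact (hgθ c' c (by rw [hc]; group)).symm }
  refine ⟨P, u, θ, T, hPcard, hDdef, hind, hθb, ?_, fun g => Iff.rfl⟩
  intro x hx
  have hx' : (x : G) ∈ Subgroup.zpowers z := by rw [← hzp]; exact hx
  have hx'' : (x : G) ∈ Submonoid.powers z :=
    mem_powers_iff_mem_zpowers.mpr hx'
  obtain ⟨k, hk⟩ := hx''
  have h1 : x = (⟨z, hzc⟩ : Subgroup.centralizer ((P : Subgroup G) : Set G)) ^ k :=
    Subtype.ext (by rw [Subgroup.coe_pow]; exact hk.symm)
  rw [h1]
  exact hθ k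

end

end Cfsg.Agent.Lib.Helper80.DG
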