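import Mathlib
import Cfsg.Prelude.Def_GeometricClasses
import Cfsg.Prelude.Def_LieClassical
import Cfsg.Agent.Lib.Helper71.Asch0
import Cfsg.Agent.Lib.Helper71.Asch8

/-! Project SPG (helper71), sub-project TIF, piece T6a (helper80): in characteristic 2 a quadratic
form on the tensor power whose polar form is the tensor product form and which vanishes on the
pure tensors. -/

set_option autoImplicit false

namespace Cfsg.Agent.Lib.Helper80.TIFT6a

open Matrix Cfsg.Geo Cfsg.Agent.Lib.Helper71.Asch

variable {n : ℕ} {F : Type*} [Field F] [Fintype F]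

/-- T6a: `q` even: a quadratic form on the tensor power with the tensor product form as polar
form and vanishing on pure tensors. -/
theorem T6a {m k : ℕ} (h2 : (2 : F) = 0) (hk : 2 ≤ k) (c : F)
    (Gs : Fin k → Matrix (Fin m) (Fin m) F) (hsym : ∀ i, (Gs i)ᵀ = Gs i)
    (hdiag : ∀ i u, Gs i u u = 0) :
    ∃ q₀ : ((Fin k → Fin m) → F) → F, (∀ (t : F) x, q₀ (t • x) = t ^ 2 * q₀ x) ∧
      (∀ x y, q₀ (x + y) = q₀ x + q₀ y + ∑ a, ∑ b, x a * (c * ∏ i, Gs i (a i) (b i)) * y b) ∧
      ∀ w : Fin k → Fin m → F, q₀ (fun a => ∏ i, w i (a i)) = 0 := by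
  classical
  obtain ⟨i₀, i₁, hi⟩ : ∃ i₀ i₁ : Fin k, i₁ ≠ i₀ :=
    ⟨⟨0, by omega⟩, ⟨1, by omega⟩, by simp [Fin.ext_iff]⟩
  obtain ⟨G, hG⟩ : ∃ G : (Fin k → Fin m) → (Fin k → Fin m) → F,
      ∀ a b, G a b = c * ∏ i, Gs i (a i) (b i) :=
    ⟨fun a b => c * ∏ i, Gs i (a i) (b i), fun _ _ => rfl⟩
  have hGsymm : ∀ a b, G a b = G b a := by
    intro a b
    rw [hG, hG]
    congr 1
    apply Finset.prod_congr rfl
    intro i _
    have h3 := congrFun (congrFun (hsym i) (a i)) (b i)
    rw [Matrix.transpose_apply] at h3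
    exact h3.symm
  have hGdiag : ∀ a b, a i₀ = b i₀ → G a b = 0 := by
    intro a b hab
    rw [hG, Finset.prod_eq_zero (Finset.mem_univ i₀) (by rw [hab]; exact hdiag i₀ _), mul_zero]
  refine ⟨fun x => ∑ a, ∑ b, if a i₀ < b i₀ then x a * G a b * x b else 0, ?_, ?_, ?_⟩
  · intro t x
    simp only [Pi.smul_apply, smul_eq_mul]
    rw [Finset.mul_sum]
    apply Finset.sum_congr rfl
    intro a _
    rw [Finset.mul_sum]
    apply Finset.sum_congr rfl
    intro b _
    split_ifs <;> ring
  · intro x y
    simp only [← hG]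
    have hcross : ∑ a, ∑ b, x a * G a b * y b
        = (∑ a, ∑ b, if a i₀ < b i₀ then x a * G a b * y b else 0)
          + ∑ a, ∑ b, if a i₀ < b i₀ then y a * G a b * x b else 0 := by
      have hswap : (∑ a, ∑ b, if a i₀ < b i₀ then y a * G a b * x b else 0)
          = ∑ a, ∑ b, if b i₀ < a i₀ then x a * G a b * y b else 0 := by
        rw [Finset.sum_comm]
        apply Finset.sum_congr rfl
        intro a _
        apply Finset.sum_congr rfl
        intro b _
        rw [hGsymm b a]
        split_ifs <;> ring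
      rw [hswap, ← Finset.sum_add_distrib]
      apply Finset.sum_congr rfl
      intro a _
      rw [← Finset.sum_add_distrib]
      apply Finset.sum_congr rfl
      intro b _
      rcases lt_trichotomy (a i₀) (b i₀) with h | h | h
      · rw [if_pos h, if_neg (not_lt.mpr h.le), add_zero]
      · rw [if_neg (by rw [h]; exact lt_irrefl _), if_neg (by rw [h]; exact lt_irrefl _),
          hGdiag a b h]
        ring
      · rw [if_neg (not_lt.mpr h.le), if_pos h, zero_add]
    rw [hcross]
    simp only [← Finset.sum_add_distrib]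
    apply Finset.sum_congr rfl
    intro a _
    apply Finset.sum_congr rfl
    intro b _
    simp only [Pi.add_apply]
    split_ifs <;> ring
  · intro w
    show ∑ a, ∑ b, (if a i₀ < b i₀ then (∏ i, w i (a i)) * G a b * (∏ i, w i (b i)) else 0) = 0
    obtain ⟨t, ht⟩ : ∃ t : Fin k → Fin m → Fin m → F, ∀ i u v, t i u v =
        if i = i₀ then (if u < v then w i u * Gs i u v * w i v else 0)
        else w i u * Gs i u v * w i v := ⟨_, fun _ _ _ => rfl⟩
    have hterm : ∀ a b : Fin k → Fin m,
        (if a i₀ < b i₀ then (∏ i, w i (a i)) * G a b * (∏ i, w i (b i)) else 0)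
          = c * ∏ i, t i (a i) (b i) := by
      intro a b
      by_cases h : a i₀ < b i₀
      · rw [if_pos h, hG]
        have h3 : ∀ i, t i (a i) (b i) = w i (a i) * Gs i (a i) (b i) * w i (b i) := by
          intro i
          rw [ht]
          by_cases hii : i = i₀
          · rw [if_pos hii, if_pos (by rw [hii]; exact h)]
          · rw [if_neg hii]
        simp only [h3]
        rw [Finset.prod_mul_distrib, Finset.prod_mul_distrib]
        ring
      · rw [if_neg h]
        have h3 : t i₀ (a i₀) (b i₀) = 0 := by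
          rw [ht, if_pos rfl, if_neg h]
        rw [Finset.prod_eq_zero (Finset.mem_univ i₀) h3, mul_zero]
    simp only [hterm]
    have hprod : ∑ a : Fin k → Fin m, ∑ b : Fin k → Fin m, ∏ i, t i (a i) (b i)
        = ∏ i, ∑ u, ∑ v, t i u v := by
      rw [Finset.prod_univ_sum, Fintype.piFinset_univ]
      apply Finset.sum_congr rfl
      intro a _
      rw [Finset.prod_univ_sum, Fintype.piFinset_univ]
    have hfac : ∑ u, ∑ v, t i₁ u v = 0 := by
      simp only [ht, if_neg hi]
      have hA : (Gs i₁)ᵀ = -(Gs i₁) := by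
        rw [hsym]
        ext u v
        rw [Matrix.neg_apply]
        have h3 : Gs i₁ u v + Gs i₁ u v = 0 := by rw [← two_mul, h2, zero_mul]
        exact eq_neg_of_add_eq_zero_left h3
      have h3 := alt_of_skew_diag (Gs i₁) hA (hdiag i₁) (w i₁)
      simp only [dotProduct, Matrix.mulVec, Finset.mul_sum] at h3
      rw [← h3]
      apply Finset.sum_congr rfl
      intro u _
      apply Finset.sum_congr rfl
      intro v _
      ring
    simp only [← Finset.mul_sum]
    rw [hprod, Finset.prod_eq_zero (Finset.mem_univ i₁) hfac, mul_zero]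

end Cfsg.Agent.Lib.Helper80.TIFT6a
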