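import Mathlib
import Cfsg.Prelude.Def_GeometricClasses

set_option autoImplicit false

namespace Cfsg.Agent.Lib.Helper80

open Matrix

section PrimSol

variable {F : Type*} [Field F] {n : ℕ}

/-- The common fixed space of a subgroup `B` of `GL_n(F)` acting on `F^n`. -/
def fixSp (B : Subgroup (GL (Fin n) F)) : Submodule F (Fin n → F) :=
  ⨅ b ∈ B, Module.End.eigenspace (Matrix.toLin' ((b : GL (Fin n) F) : Matrix (Fin n) (Fin n) F)) 1

theorem mem_fixSp {B : Subgroup (GL (Fin n) F)} {v : Fin n → F} :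
    v ∈ fixSp B ↔ ∀ b ∈ B, ((b : GL (Fin n) F) : Matrix (Fin n) (Fin n) F) *ᵥ v = v := by
  unfold fixSp
  simp only [Submodule.mem_iInf, Module.End.mem_eigenspace_iff, Matrix.toLin'_apply, one_smul]

theorem mem_eigenspace_one_iff (g : GL (Fin n) F) (v : Fin n → F) :
    v ∈ Module.End.eigenspace (Matrix.toLin' ((g : GL (Fin n) F) : Matrix (Fin n) (Fin n) F)) 1 ↔
      ((g : GL (Fin n) F) : Matrix (Fin n) (Fin n) F) *ᵥ v = v := by
  simp only [Module.End.mem_eigenspace_iff, Matrix.toLin'_apply, one_smul]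

theorem fixSp_mono {B C : Subgroup (GL (Fin n) F)} (h : B ≤ C) : fixSp C ≤ fixSp B := by
  intro v hv
  rw [mem_fixSp] at hv ⊢
  exact fun b hb => hv b (h hb)

/-- `g • Fix(B) = Fix(g B g⁻¹)`. -/
theorem fixSp_map (B : Subgroup (GL (Fin n) F)) (g : GL (Fin n) F) :
    (fixSp B).map (Matrix.toLin' ((g : GL (Fin n) F) : Matrix (Fin n) (Fin n) F)) =
      fixSp (B.map (MulAut.conj g).toMonoidHom) := by
  ext v
  constructor
  · rintro ⟨w, hw, rfl⟩
    rw [SetLike.mem_coe, mem_fixSp] at hw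
    rw [mem_fixSp]
    rintro _ ⟨b, hb, rfl⟩
    have h1 := hw b hb
    simp only [MulEquiv.coe_toMonoidHom, MulAut.conj_apply, Matrix.toLin'_apply, Units.val_mul,
      Matrix.mulVec_mulVec]
    rw [mul_assoc, mul_assoc, ← Units.val_mul, inv_mul_cancel, Units.val_one, mul_one,
      ← Matrix.mulVec_mulVec, h1]
  · intro hv
    rw [mem_fixSp] at hv
    refine ⟨((g⁻¹ : GL (Fin n) F) : Matrix (Fin n) (Fin n) F) *ᵥ v, ?_, ?_⟩
    · rw [SetLike.mem_coe, mem_fixSp]
      intro b hb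
      have h1 := hv (g * b * g⁻¹) ⟨b, hb, rfl⟩
      rw [Matrix.mulVec_mulVec]
      have h2 : ((b : GL (Fin n) F) : Matrix (Fin n) (Fin n) F) * ((g⁻¹ : GL (Fin n) F) : Matrix (Fin n) (Fin n) F)
          = ((g⁻¹ : GL (Fin n) F) : Matrix (Fin n) (Fin n) F) * (((g * b * g⁻¹ : GL (Fin n) F)) : Matrix (Fin n) (Fin n) F) := by
        rw [← Units.val_mul, ← Units.val_mul]
        congr 1
        group
      rw [h2, ← Matrix.mulVec_mulVec, h1]
    · rw [Matrix.toLin'_apply, Matrix.mulVec_mulVec, ← Units.val_mul, mul_inv_cancel, Units.val_one,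
        Matrix.one_mulVec]

end PrimSol

end Cfsg.Agent.Lib.Helper80
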