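import Mathlib
import Cfsg.Prelude.Def_GeometricClasses
import Cfsg.Prelude.Def_LieClassical
import Cfsg.Agent.Lib.Helper71.Asch5
import Cfsg.Agent.Lib.Helper82.ASB8UNITS
import Cfsg.Agent.Lib.Helper44.BADDefs

/-! Project BAD (helper44; sub-project of helper49's SUG = S5663): piece TSCAL. -/

set_option autoImplicit false

namespace Cfsg.Agent.Lib.Helper44.BAD

open Matrix Cfsg.Geo Cfsg.Agent.Lib.Helper71.Asch
open scoped Kronecker

variable {n : ℕ} {F : Type*} [Field F] [Fintype F] {q : ℕ}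

theorem TSCAL_aux (e : Fin n ≃ Fin 3 × Fin 3) (P : GL (Fin n) F)
    (a b : Matrix (Fin 3) (Fin 3) F) (c : F)
    (h : tmat e P a b = c • (1 : Matrix (Fin n) (Fin n) F)) :
    a ⊗ₖ b = c • (1 : Matrix (Fin 3 × Fin 3) (Fin 3 × Fin 3) F) := by
  unfold tmat at h
  have hPi : (P⁻¹ : GL (Fin n) F).1 * P.1 = 1 := by
    rw [← Units.val_mul, inv_mul_cancel, Units.val_one]
  have h1 : Matrix.reindex e.symm e.symm (a ⊗ₖ b) = c • (1 : Matrix (Fin n) (Fin n) F) := by
    have h2 := congrArg (fun M => (P⁻¹ : GL (Fin n) F).1 * M * P.1) h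
    rw [← Matrix.mul_assoc, ← Matrix.mul_assoc, hPi, Matrix.one_mul, Matrix.mul_assoc, hPi,
      Matrix.mul_one] at h2
    rw [h2, Matrix.mul_smul, Matrix.mul_one, Matrix.smul_mul, hPi]
  ext ⟨i, k⟩ ⟨j, l⟩
  have h3 := congrFun (congrFun h1 (e.symm (i, k))) (e.symm (j, l))
  simpa [Matrix.reindex_apply, Matrix.submatrix_apply, Matrix.one_apply] using h3

/-- TSCAL: `a ⊗ 1` (or `1 ⊗ a`) scalar implies `a` scalar. -/
theorem TSCAL (e : Fin n ≃ Fin 3 × Fin 3) (P : GL (Fin n) F) (a : Matrix (Fin 3) (Fin 3) F)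
    (c : F) :
    (tmat e P a 1 = c • (1 : Matrix (Fin n) (Fin n) F) → a = c • (1 : Matrix (Fin 3) (Fin 3) F)) ∧
    (tmat e P 1 a = c • (1 : Matrix (Fin n) (Fin n) F) → a = c • (1 : Matrix (Fin 3) (Fin 3) F)) := by
  constructor
  · intro h
    have h1 := TSCAL_aux e P a 1 c h
    ext i j
    have h2 := congrFun (congrFun h1 (i, 0)) (j, 0)
    simpa [Matrix.kroneckerMap_apply, Matrix.one_apply] using h2
  · intro h
    have h1 := TSCAL_aux e P 1 a c h
    ext i j
    have h2 := congrFun (congrFun h1 (0, i)) (0, j)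
    simpa [Matrix.kroneckerMap_apply, Matrix.one_apply] using h2

end Cfsg.Agent.Lib.Helper44.BAD
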