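import Mathlib
import Cfsg.Prelude.Def_GeometricClasses
import Cfsg.Prelude.Def_LieClassical
import Cfsg.Agent.Lib.Helper71.SUP0
import Cfsg.Agent.Lib.Helper99.F4F3
import Cfsg.Agent.Lib.Helper59.U52Defs
import Cfsg.Agent.Lib.Helper59.U52Conc

/-!
# Project U52 (helper59), S5796: piece NRM (helper80)

The normaliser in `S = GU_5(2) ⊓ SL_5(4)` of `⟨c₀⟩` preserves the set `Pv`.
-/

set_option autoImplicit false

namespace Cfsg.Agent.Lib.Helper59.U52

open Matrix Cfsg.Geo Cfsg.Agent.Lib.Helper99.U42 Cfsg.Agent.Lib.Helper71.SUP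

theorem nrm_rot2 : ∀ a b c d e : F4, tmem c d e a b = tmem a b c d e := by decide

theorem nrm_rot3 : ∀ a b c d e : F4, tmem d e a b c = tmem a b c d e := by decide

theorem nrm_rot4 : ∀ a b c d e : F4, tmem e a b c d = tmem a b c d e := by decide

theorem nrm (g : GL (Fin 5) F4) (hg : g ∈ Cfsg.GU 5 F4 2 ⊓ specialLinear (Fin 5) F4)
    (h : g * c0G * g⁻¹ ∈ Subgroup.zpowers c0G) (v : Fin 5 → F4) :
    Pv ((g : Matrix (Fin 5) (Fin 5) F4) *ᵥ v) ↔ Pv v := by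
  obtain ⟨k, hk⟩ := Subgroup.mem_zpowers_iff.mp h
  have hk2 : c0G ^ k = c0G ^ (k % 11).toNat := by
    rw [zpow_eq_zpow_emod' k c0G_pow11, ← zpow_natCast]
    congr 1
    exact (Int.toNat_of_nonneg (Int.emod_nonneg _ (by norm_num))).symm
  have hj11 : (k % 11).toNat < 11 := by omega
  have hj : c0G ^ (k % 11).toNat = g * c0G * g⁻¹ := by rw [← hk2, hk]
  generalize (k % 11).toNat = j at hj11 hj
  have htr : (Cmat j).trace = C1.trace := by
    have h1 := congrArg (fun x : GL (Fin 5) F4 => (x : Matrix (Fin 5) (Fin 5) F4).trace) hj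
    simp only [c0G_pow_val, Nat.mod_eq_of_lt hj11] at h1
    rw [h1, Units.val_mul, Units.val_mul, c0G_val]
    exact Matrix.trace_units_conj g C1
  obtain ⟨hU, -⟩ := (mem_S_iff g).mp hg
  have key : ∀ i : ℕ,
      A ((j * i) % 11) ((g : Matrix (Fin 5) (Fin 5) F4) *ᵥ v) = A (i % 11) v := by
    intro i
    have h1 : g * c0G ^ i * g⁻¹ = c0G ^ (j * i) := by
      rw [← conj_pow, ← hj, ← pow_mul]
    have h2 : g * c0G ^ i = c0G ^ (j * i) * g := by
      rw [← h1]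
      group
    have h3 : (g : Matrix (Fin 5) (Fin 5) F4) * Cmat (i % 11) =
        Cmat ((j * i) % 11) * (g : Matrix (Fin 5) (Fin 5) F4) := by
      have h4 := congrArg (fun x : GL (Fin 5) F4 => (x : Matrix (Fin 5) (Fin 5) F4)) h2
      simpa only [Units.val_mul, c0G_pow_val] using h4
    unfold A
    rw [Matrix.mulVec_mulVec, ← h3, ← Matrix.mulVec_mulVec, hU]
  have k1 := key 1
  have k3 := key 3
  have k9 := key 9
  have k5 := key 5
  have k4 := key 4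
  rw [Pv_iff, Pv_iff]
  rcases trace_Cmat j hj11 htr with rfl | rfl | rfl | rfl | rfl
  · norm_num at k1 k3 k9 k5 k4
    rw [k1, k3, k9, k5, k4]
  · norm_num at k1 k3 k9 k5 k4
    rw [← k1, ← k3, ← k9, ← k5, ← k4, tmem_rot (A 1 _) (A 3 _) (A 9 _) (A 5 _) (A 4 _)]
  · norm_num at k1 k3 k9 k5 k4
    rw [← k1, ← k3, ← k9, ← k5, ← k4, nrm_rot4 (A 1 _) (A 3 _) (A 9 _) (A 5 _) (A 4 _)]
  · norm_num at k1 k3 k9 k5 k4
    rw [← k1, ← k3, ← k9, ← k5, ← k4, nrm_rot3 (A 1 _) (A 3 _) (A 9 _) (A 5 _) (A 4 _)]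
  · norm_num at k1 k3 k9 k5 k4
    rw [← k1, ← k3, ← k9, ← k5, ← k4, nrm_rot2 (A 1 _) (A 3 _) (A 9 _) (A 5 _) (A 4 _)]

end Cfsg.Agent.Lib.Helper59.U52
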