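import Mathlib
import Cfsg.Agent.Lib.Helper22.Defect
import Cfsg.Agent.Lib.Helper4.CharExp2

set_option autoImplicit false

/-!
Piece BC of the DG project (S4507, job 1382): an irreducible character agreeing on the
`p`-regular elements with a member of the block `B` lies in `B`.
-/

namespace Cfsg.Agent.Lib.Helper80.DG

open Cfsg Cfsg.Agent.Lib.Helper4 Cfsg.Agent.Lib.Helper21 Cfsg.Agent.Lib.Helper22
open scoped ComplexConjugate

section

variable {G : Type*} [Group G] [Fintype G]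

open scoped Classical in
/-- `∑_g blockCoeff B g * φ g` is `φ 1` if `φ ∈ B` and `0` otherwise. -/
theorem sum_blockCoeff_mul_irr (B : Set (IrrCharacter G)) (φ : IrrCharacter G) :
    ∑ g : G, blockCoeff B g * (φ : G → ℂ) g = if φ ∈ B then (φ : G → ℂ) 1 else 0 := by
  have hfin : Finite (IrrCharacter G) := irr_finite
  let _ : Fintype (IrrCharacter G) := Fintype.ofFinite _
  have h1 : ∀ g : G, blockCoeff B g * (φ : G → ℂ) g = ∑ χ : IrrCharacter G,
      (if χ ∈ B then (1 : ℂ) else 0) * (χ : G → ℂ) 1 *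
        ((Nat.card G : ℂ)⁻¹ * ((φ : G → ℂ) g * conj ((χ : G → ℂ) g))) := by
    intro g
    rw [blockCoeff_eq_sum, Finset.mul_sum, Finset.sum_mul]
    refine Finset.sum_congr rfl fun χ _ => ?_
    ring
  rw [Finset.sum_congr rfl (fun g _ => h1 g), Finset.sum_comm]
  have h2 : ∀ χ : IrrCharacter G, ∑ g : G, (if χ ∈ B then (1 : ℂ) else 0) * (χ : G → ℂ) 1 *
        ((Nat.card G : ℂ)⁻¹ * ((φ : G → ℂ) g * conj ((χ : G → ℂ) g)))
      = (if χ ∈ B then (1 : ℂ) else 0) * (χ : G → ℂ) 1 * (if φ = χ then 1 else 0) := by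
    intro χ
    rw [← Finset.mul_sum, ← Finset.mul_sum, ← classInner_irr φ χ]
    rfl
  rw [Finset.sum_congr rfl (fun χ _ => h2 χ), Finset.sum_eq_single φ]
  · by_cases h : φ ∈ B <;> simp [h]
  · intro χ _ hne
    rw [if_neg (Ne.symm hne), mul_zero]
  · intro h
    exact absurd (Finset.mem_univ _) h

/-- PIECE BC -/
theorem mem_block_of_agree_reg (p : ℕ) [Fact p.Prime] (M : Ideal AlgInt) (hM : IsPModular p M)
    (B : Set (IrrCharacter G)) (hB : IsPBlock M B) (χ ψ : IrrCharacter G) (hχ : χ ∈ B)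
    (h : ∀ g : G, ¬ p ∣ orderOf g → ψ.1 g = χ.1 g) : ψ ∈ B := by
  classical
  by_contra hψ
  have h1 := sum_blockCoeff_mul_irr B ψ
  have h2 := sum_blockCoeff_mul_irr B χ
  rw [if_neg hψ] at h1
  rw [if_pos hχ] at h2
  have h3 : ∑ g : G, blockCoeff B g * (ψ : G → ℂ) g
      = ∑ g : G, blockCoeff B g * (χ : G → ℂ) g := by
    refine Finset.sum_congr rfl fun g _ => ?_
    by_cases hg : blockCoeff B g = 0
    · rw [hg, zero_mul, zero_mul]
    · have h4 : (ψ : G → ℂ) g = (χ : G → ℂ) g :=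
        h g (pRegular_of_blockCoeff_ne_zero hM B hB g hg)
      rw [h4]
  rw [h1, h2] at h3
  exact irr_one_ne_zero χ h3.symm

end

end Cfsg.Agent.Lib.Helper80.DG
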