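import Cfsg.Agent.Lib.Helper96.HyDefs
import Cfsg.Agent.Lib.Helper51.HypPairs
import Cfsg.Prelude.Def_GeometricClasses
import Cfsg.Prelude.Def_Classical

/-!
Project HE (S5993, helper96), piece UNIPEVEN: for even `d` an explicit nilpotent `N` of square
zero and rank `d` on `F^(1+2d)` with `Q (v + N v) = Q v` for the odd-dimensional quadratic form.
-/

set_option autoImplicit false
set_option linter.unusedSectionVars false
set_option linter.unusedVariables false

namespace Cfsg.Agent.Lib.Helper80.He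

open Module Polynomial Cfsg.Agent.Lib.Helper96.Sp Cfsg.Agent.Lib.Helper96.Hy
  Cfsg.Agent.Lib.Helper47

universe u

variable {F : Type u} [Field F] [Fintype F]

/-- A fixed-point-free involution of `Fin d` with a sign that it reverses (`d` even). -/
theorem ue_exists_sigma (d : ℕ) (hd : Even d) :
    ∃ (σ : Fin d → Fin d) (s : Fin d → F), (∀ i, σ (σ i) = i) ∧ (∀ i, s (σ i) = - s i) ∧
      (∀ i, s i * s i = 1) := by
  obtain ⟨k, rfl⟩ := hd
  refine ⟨fun i => finSumFinEquiv (Sum.swap (finSumFinEquiv.symm i)),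
    fun i => Sum.elim (fun _ => (1 : F)) (fun _ => (-1 : F)) (finSumFinEquiv.symm i), ?_, ?_, ?_⟩
  · intro i
    simp
  · intro i
    simp only [Equiv.symm_apply_apply]
    rcases finSumFinEquiv.symm i with a | b <;> simp
  · intro i
    simp only []
    generalize finSumFinEquiv.symm i = x
    rcases x with a | b <;> simp

/-- The map `(x₀; x; y) ↦ (0; A y; 0)` with `(A y) i = s i * y (σ i)`. -/
def ueN (d : ℕ) (σ : Fin d → Fin d) (s : Fin d → F) :
    Module.End F (Unit ⊕ (Fin d ⊕ Fin d) → F) where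
  toFun v := Sum.elim (fun _ => 0)
    (Sum.elim (fun i => s i * v (Sum.inr (Sum.inr (σ i)))) (fun _ => 0))
  map_add' v w := by
    ext x
    rcases x with u | i | j <;> simp [mul_add]
  map_smul' c v := by
    ext x
    rcases x with u | i | j <;> simp [mul_left_comm]

/-- The embedding `u ↦ (0; u; 0)`. -/
def ueL (d : ℕ) : (Fin d → F) →ₗ[F] (Unit ⊕ (Fin d ⊕ Fin d) → F) where
  toFun u := Sum.elim (fun _ => 0) (Sum.elim u (fun _ => 0))
  map_add' v w := by
    ext x
    rcases x with u | i | j <;> simp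
  map_smul' c v := by
    ext x
    rcases x with u | i | j <;> simp

/-- The map `(x₀; x; y) ↦ A y`. -/
def ueM (d : ℕ) (σ : Fin d → Fin d) (s : Fin d → F) :
    (Unit ⊕ (Fin d ⊕ Fin d) → F) →ₗ[F] (Fin d → F) where
  toFun v := fun i => s i * v (Sum.inr (Sum.inr (σ i)))
  map_add' v w := by
    ext i
    simp [mul_add]
  map_smul' c v := by
    ext i
    simp [mul_left_comm]

theorem ue_sum_zero (h2 : (2 : F) ≠ 0) (d : ℕ) (σ : Fin d → Fin d) (s : Fin d → F)
    (hσ : ∀ i, σ (σ i) = i) (hs1 : ∀ i, s (σ i) = - s i) (y : Fin d → F) :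
    ∑ i : Fin d, s i * y (σ i) * y i = 0 := by
  have hinv : Function.Involutive σ := hσ
  have h1 : ∑ i : Fin d, s i * y (σ i) * y i = ∑ i : Fin d, s (σ i) * y (σ (σ i)) * y (σ i) :=
    (Equiv.sum_comp hinv.toPerm (fun i => s i * y (σ i) * y i)).symm
  have h3 : ∑ i : Fin d, s (σ i) * y (σ (σ i)) * y (σ i)
      = - ∑ i : Fin d, s i * y (σ i) * y i := by
    rw [← Finset.sum_neg_distrib]
    apply Finset.sum_congr rfl
    intro i _
    rw [hσ, hs1]
    ring
  rw [h3] at h1
  have h4 : (2 : F) * ∑ i : Fin d, s i * y (σ i) * y i = 0 := by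
    linear_combination h1
  rcases mul_eq_zero.mp h4 with h | h
  · exact absurd h h2
  · exact h

theorem exists_unip_even (h2 : (2 : F) ≠ 0) (d : ℕ) (hd : Even d) (hd1 : 1 ≤ d) :
    ∃ N : Module.End F (Unit ⊕ (Fin d ⊕ Fin d) → F),
      (∀ v, Cfsg.quadFormOdd d F (v + N v) = Cfsg.quadFormOdd d F v) ∧ N ^ 2 = 0 ∧
      finrank F (LinearMap.range N) = d := by
  obtain ⟨σ, s, hσ, hs1, hs2⟩ := ue_exists_sigma (F := F) d hd
  refine ⟨ueN d σ s, ?_, ?_, ?_⟩
  · intro v
    unfold Cfsg.quadFormOdd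
    have e0 : (v + ueN d σ s v) (Sum.inl ()) = v (Sum.inl ()) := by
      simp [ueN]
    have e1 : ∀ i : Fin d, (v + ueN d σ s v) (Sum.inr (Sum.inl i))
        = v (Sum.inr (Sum.inl i)) + s i * v (Sum.inr (Sum.inr (σ i))) := by
      intro i
      simp [ueN]
    have e2 : ∀ i : Fin d, (v + ueN d σ s v) (Sum.inr (Sum.inr i)) = v (Sum.inr (Sum.inr i)) := by
      intro i
      simp [ueN]
    rw [e0]
    congr 1
    have h3 := ue_sum_zero h2 d σ s hσ hs1 (fun j => v (Sum.inr (Sum.inr j)))
    calc ∑ i : Fin d, (v + ueN d σ s v) (Sum.inr (Sum.inl i))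
          * (v + ueN d σ s v) (Sum.inr (Sum.inr i))
        = ∑ i : Fin d, (v (Sum.inr (Sum.inl i)) * v (Sum.inr (Sum.inr i))
            + s i * v (Sum.inr (Sum.inr (σ i))) * v (Sum.inr (Sum.inr i))) := by
          apply Finset.sum_congr rfl
          intro i _
          rw [e1, e2]
          ring
      _ = ∑ i : Fin d, v (Sum.inr (Sum.inl i)) * v (Sum.inr (Sum.inr i)) := by
          rw [Finset.sum_add_distrib, h3, add_zero]
  · apply LinearMap.ext
    intro v
    rw [pow_two, Module.End.mul_apply]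
    ext x
    rcases x with u | i | j <;> simp [ueN]
  · have hcomp : ueN d σ s = ueL d ∘ₗ ueM d σ s := by
      apply LinearMap.ext
      intro v
      ext x
      rcases x with u | i | j <;> simp [ueN, ueL, ueM]
    have hM : LinearMap.range (ueM d σ s) = ⊤ := by
      rw [LinearMap.range_eq_top]
      intro u
      refine ⟨Sum.elim (fun _ => 0) (Sum.elim (fun _ => 0) (fun j => s (σ j) * u (σ j))), ?_⟩
      ext i
      simp only [ueM, LinearMap.coe_mk, AddHom.coe_mk, Sum.elim_inr, hσ]
      rw [← mul_assoc, hs2, one_mul]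
    have hL : Function.Injective (ueL (F := F) d) := by
      intro u u' h
      ext i
      have := congrFun h (Sum.inr (Sum.inl i))
      simpa [ueL] using this
    rw [hcomp, LinearMap.range_comp_of_range_eq_top _ hM, LinearMap.finrank_range_of_inj hL,
      Module.finrank_fin_fun]

end Cfsg.Agent.Lib.Helper80.He
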