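import Cfsg.Agent.Lib.Helper22.PTDefs
import Cfsg.Agent.Lib.Helper83.IrrBasic

/-!
Project PT (S4705, helper22), piece HYPG: the hypotheses of S4705 give an element `z` with
`Hyp G p z ζ`.
-/

set_option autoImplicit false

namespace Cfsg.Agent.Lib.Helper80.PT

open Cfsg Cfsg.Agent.Lib.Helper22.BFD Cfsg.Agent.Lib.Helper22.PT
open scoped ComplexConjugate

universe u

/-- PIECE HYPG -/
theorem hypG {G : Type u} [Group G] [Finite G] (p : ℕ) [Fact p.Prime] (hp : 5 < p)
    (P : Sylow p G) (hP : Nat.card P = p) (hnn : ¬ (P : Subgroup G).Normal) (ζ : G → ℂ)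
    (hζ : IsIrrCharacter G ζ) (hfaith : ∀ g : G, ζ g = ζ 1 → g = 1)
    (hdeg : charDegree ζ = p - 2) : ∃ z : G, Hyp G p z ζ := by
  have hpp : p.Prime := Fact.out
  have hcardP : Nat.card (P : Subgroup G) = p := hP
  have hne : (P : Subgroup G) ≠ ⊥ := by
    intro hbot
    rw [hbot, Subgroup.card_bot] at hcardP
    omega
  obtain ⟨⟨z, hzP⟩, hz1⟩ := (Subgroup.ne_bot_iff_exists_ne_one).mp hne
  have hz1' : z ≠ 1 := fun h0 => hz1 (Subtype.ext h0)
  have hord : orderOf z = p := by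
    have h1 : orderOf z ∣ p := by
      rw [← hcardP]
      exact Subgroup.orderOf_dvd_natCard _ hzP
    rcases (Nat.dvd_prime hpp).mp h1 with h2 | h2
    · exact absurd (orderOf_eq_one_iff.mp h2) hz1'
    · exact h2
  have hzp : Subgroup.zpowers z = (P : Subgroup G) := by
    apply Subgroup.eq_of_le_of_card_ge (Subgroup.zpowers_le.mpr hzP)
    rw [Nat.card_zpowers, hord, hcardP]
  refine ⟨z, ⟨hp, hord, ?_, ?_, hζ, hfaith, ?_⟩⟩
  · intro h2
    have h3 := P.pow_dvd_card_of_pow_dvd_card h2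
    rw [hcardP] at h3
    have h4 := Nat.le_of_dvd hpp.pos h3
    nlinarith
  · rw [hzp]
    exact hnn
  · obtain ⟨_, hd1⟩ := Cfsg.Agent.Lib.Helper83.irr_degree hζ
    rw [hd1, hdeg, Nat.cast_sub (by omega)]
    norm_num

end Cfsg.Agent.Lib.Helper80.PT
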