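import Cfsg.Agent.Lib.Helper22.PTDefs
import Cfsg.Agent.Lib.Helper83.IrrBasic

/-!
Project PT (S4705, helper22), piece ODDZ: `ζ` vanishes on the non-central `p`-regular elements
of odd order.
-/

set_option autoImplicit false

namespace Cfsg.Agent.Lib.Helper80.PT

open Cfsg Cfsg.Agent.Lib.Helper22.BFD Cfsg.Agent.Lib.Helper22.PT
open scoped ComplexConjugate

universe u

variable {G : Type u} [Group G] [Fintype G]

/-- PIECE ODDZ -/
theorem oddz (p : ℕ) [Fact p.Prime] (z : G) (ζ : G → ℂ) (h : Hyp G p z ζ) (s : ℕ)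
    (hs : Sq2 G p s)
    (hE1 : ∀ g, ¬ p ∣ orderOf g → ζ g ^ 2 - ζ (g ^ 2) = ((p : ℂ) - 3) * ζ (g ^ s))
    (horb : Orb ζ s) (hzabs : ∀ g : G, ‖ζ g‖ = ‖ζ 1‖ → g ∈ Subgroup.center G)
    (g : G) (hodd : Odd (orderOf g)) (hreg : ¬ p ∣ orderOf g) (hnc : g ∉ Subgroup.center G) :
    ζ g = 0 := by
  have hp5 := h.p5
  obtain ⟨hdpos, hd1⟩ := Cfsg.Agent.Lib.Helper83.irr_degree h.irr
  have hcast : (((p - 2 : ℕ) : ℝ) : ℂ) = (p : ℂ) - 2 := by
    push_cast [Nat.cast_sub (show 2 ≤ p by omega)]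
    ring
  have hdeg : charDegree ζ = p - 2 := by
    have h1 : (charDegree ζ : ℂ) = ((p - 2 : ℕ) : ℂ) := by
      rw [← hd1, h.deg, Nat.cast_sub (by omega)]
      norm_num
    exact_mod_cast h1
  have hC : (0 : ℝ) < ((p - 2 : ℕ) : ℝ) := by
    have : 0 < p - 2 := by omega
    exact_mod_cast this
  have hcop : s.Coprime (orderOf g) :=
    Nat.Coprime.coprime_dvd_right (orderOf_dvd_natCard g) hs.cop
  have hpow : ∀ j : ℕ, Odd (orderOf (g ^ (s ^ j))) ∧ ¬ p ∣ orderOf (g ^ (s ^ j)) := by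
    intro j
    have hdvd : orderOf (g ^ (s ^ j)) ∣ orderOf g := orderOf_pow_dvd (s ^ j)
    exact ⟨Odd.of_dvd_nat hodd hdvd, fun hp => hreg (hp.trans hdvd)⟩
  have hrec : ∀ j : ℕ,
      ζ (g ^ (s ^ j)) ^ 2 = (((p - 2 : ℕ) : ℝ) : ℂ) * ζ (g ^ (s ^ (j + 1))) := by
    intro j
    obtain ⟨ho, hr⟩ := hpow j
    have h1 := hE1 (g ^ (s ^ j)) hr
    have h2 := hs.sq (g ^ (s ^ j)) ho hr
    have h3 : (g ^ (s ^ j)) ^ s = g ^ (s ^ (j + 1)) := by
      rw [← pow_mul, ← pow_succ]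
    rw [← h2, h3] at h1
    rw [hcast]
    linear_combination h1
  have hbound : ∀ j : ℕ, ‖ζ (g ^ (s ^ j))‖ ≤ ((p - 2 : ℕ) : ℝ) := by
    intro j
    have h1 := Cfsg.Agent.Lib.Helper83.irr_norm_le h.irr (g ^ (s ^ j))
    rw [hdeg] at h1
    exact h1
  rcases horb _ hC g hcop hrec hbound with h0 | h1
  · exact h0
  · exfalso
    apply hnc
    apply hzabs
    rw [h1, h.deg, ← hcast, Complex.norm_real, Real.norm_of_nonneg hC.le]

end Cfsg.Agent.Lib.Helper80.PT
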