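import Cfsg.Agent.Lib.Helper22.PTDefs
import Cfsg.Agent.Lib.Helper80.Twisted

/-!
Project PT (S4705, helper22), piece ZCSQ: the alternating-square function and the square of an
irreducible character have central character the square of the central character.
-/

set_option autoImplicit false

namespace Cfsg.Agent.Lib.Helper80.PT

open Cfsg Cfsg.Agent.Lib.Helper22.BFD Cfsg.Agent.Lib.Helper22.PT
open scoped ComplexConjugate

universe u

variable {G : Type u} [Group G] [Fintype G]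

/-- PIECE ZCSQ -/
theorem zcsq (ζ : G → ℂ) (hirr : IsIrrCharacter G ζ) (η : G → ℂ)
    (hη : ∀ c ∈ Subgroup.center G, η c = cz ζ c ^ 2) :
    ZC η (fun g => (ζ g ^ 2 - ζ (g ^ 2)) / 2) ∧ ZC η (fun g => ζ g ^ 2) := by
  obtain ⟨χ, hχ⟩ : ∃ χ : IrrCharacter G, (χ : G → ℂ) = ζ := ⟨⟨ζ, hirr⟩, rfl⟩
  have hcc : ∀ c, Cfsg.Agent.Lib.Helper80.cc χ c = cz ζ c := by
    intro c
    unfold Cfsg.Agent.Lib.Helper80.cc cz
    rw [hχ]
  have h1 : ∀ c ∈ Subgroup.center G, ∀ g : G, ζ (c * g) = cz ζ c * ζ g := by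
    intro c hc g
    have h := Cfsg.Agent.Lib.Helper80.irr_mul_central χ hc g
    rw [hcc, hχ] at h
    have hcomm : g * c = c * g := Subgroup.mem_center_iff.mp hc g
    rw [← hcomm]
    exact h
  have h2 : ∀ c ∈ Subgroup.center G, cz ζ (c ^ 2) = cz ζ c ^ 2 := by
    intro c hc
    have h := Cfsg.Agent.Lib.Helper80.cc_mul χ (z := c) hc
    rw [hcc, hcc] at h
    rw [pow_two, pow_two]
    exact h
  constructor
  · intro c hc g
    have hc2 : c ^ 2 ∈ Subgroup.center G := Subgroup.pow_mem _ hc 2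
    have e1 : (c * g) ^ 2 = c ^ 2 * g ^ 2 := by
      have hcomm : g * c = c * g := Subgroup.mem_center_iff.mp hc g
      rw [pow_two, pow_two, pow_two]
      calc c * g * (c * g) = c * (g * c) * g := by group
        _ = c * (c * g) * g := by rw [hcomm]
        _ = c * c * (g * g) := by group
    show (ζ (c * g) ^ 2 - ζ ((c * g) ^ 2)) / 2 = η c * ((ζ g ^ 2 - ζ (g ^ 2)) / 2)
    rw [e1, h1 c hc g, h1 (c ^ 2) hc2 (g ^ 2), h2 c hc, hη c hc]
    ring
  · intro c hc g
    show ζ (c * g) ^ 2 = η c * ζ g ^ 2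
    rw [h1 c hc g, hη c hc]
    ring

end Cfsg.Agent.Lib.Helper80.PT
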