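import Cfsg.Agent.Lib.Helper96.PiDefs
import Cfsg.Agent.Lib.Helper96.PiGlueB
import Cfsg.Agent.Lib.Helper96.PiOmega
import Cfsg.Agent.Lib.Helper9.HeUNIPPOW

/-!
Project PI (S5989, helper96), piece MAXELT2 (helper80): existence of an isometry of order `r`
whose fixed space has dimension `n % blk` (copy of `Helper68.Hy.exists_max_elt` with the
hypothesis `0 < n % blk` instead of oddness of `n`).
-/

set_option autoImplicit false
set_option linter.unusedSectionVars false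
set_option linter.unusedVariables false

namespace Cfsg.Agent.Lib.Helper80.Pi

open Module Cfsg.Agent.Lib.Helper96.Sp Cfsg.Agent.Lib.Helper96.BG Cfsg.Agent.Lib.Helper96.Hy
  Cfsg.Agent.Lib.Helper96.Pi Cfsg.Agent.Lib.Helper47

universe u

variable {F : Type u} [Field F] [Fintype F] {V : Type u} [AddCommGroup V] [Module F V]
  [FiniteDimensional F V] {B : LinearMap.BilinForm F V}

-- PIECE MAXELT2
theorem exists_max_elt2 (hS : B.IsSymm) (h2 : (2 : F) ≠ 0) (hN : ND B ⊤) (hF : Facts B) (r : ℕ)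
    [Fact r.Prime] (hr2 : r ≠ 2) (hi : 1 ≤ orderOf ((Fintype.card F : ℕ) : ZMod r))
    (hk : 0 < finrank F V % blk (Fintype.card F) r) (hc : blk (Fintype.card F) r ≤ finrank F V)
    (hfpf : ∀ H : Submodule F V, ND B H → ∀ b : ℕ, 1 ≤ b →
      finrank F H = blk (Fintype.card F) r * b →
      Typ B H (if Even (orderOf ((Fintype.card F : ℕ) : ZMod r)) then (-1) ^ b else 1) →
      ∃ g : Module.End F ↥H, (∀ v : H, B (g v : V) (g v : V) = B (v : V) (v : V)) ∧
        g ^ r = 1 ∧ ∀ v : H, g v = v → v = 0)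
    (hext : ∀ H : Submodule F V, ND B H → ∀ g : Module.End F ↥H,
      (∀ v : H, B (g v : V) (g v : V) = B (v : V) (v : V)) → g ^ r = 1 →
      (∀ v : H, g v = v → v = 0) →
      ∃ T : Module.End F V, Isom B T ∧ T ^ r = 1 ∧ (∀ v : H, T (v : V) = (g v : V)) ∧
        finrank F (LinearMap.ker (T - 1)) + finrank F H = finrank F V) :
    ∃ T : Module.End F V, Isom B T ∧ T ^ r = 1 ∧ T ≠ 1 ∧
      finrank F (LinearMap.ker (T - 1)) = finrank F V % blk (Fintype.card F) r := by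
  have hceven : Even (blk (Fintype.card F) r) := blk_even _ _
  have hc1 : 1 ≤ blk (Fintype.card F) r := blk_pos _ _ hi
  obtain ⟨c, hcdef⟩ : ∃ c : ℕ, c = blk (Fintype.card F) r := ⟨_, rfl⟩
  rw [← hcdef] at hc hceven hc1 hk ⊢
  obtain ⟨c', hc'⟩ := hceven
  obtain ⟨n, hn⟩ : ∃ n : ℕ, n = finrank F V := ⟨_, rfl⟩
  rw [← hn] at hc hk ⊢
  have hb1 : 1 ≤ n / c := Nat.div_pos hc (by omega)
  obtain ⟨b, hbdef⟩ : ∃ b : ℕ, b = n / c := ⟨_, rfl⟩
  rw [← hbdef] at hb1
  have hD : c * b + n % c = n := by rw [hbdef]; exact Nat.div_add_mod n c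
  have hDw : c * b = 2 * (c' * b) := by rw [hc']; ring
  have hw1 : 1 ≤ c' * b := by
    have h1 : 1 ≤ c' := by omega
    exact Nat.mul_pos h1 hb1
  have hlt : 2 * (c' * b) + 1 ≤ finrank F (⊤ : Submodule F V) := by
    rw [finrank_top, ← hn]
    omega
  have hH : ∃ H : Submodule F V, ND B H ∧ finrank F H = c * b ∧
      Typ B H (if Even (orderOf ((Fintype.card F : ℕ) : ZMod r)) then (-1) ^ b else 1) := by
    have hε : (if Even (orderOf ((Fintype.card F : ℕ) : ZMod r)) then ((-1 : ℤ)) ^ b else 1) = 1 ∨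
        (if Even (orderOf ((Fintype.card F : ℕ) : ZMod r)) then ((-1 : ℤ)) ^ b else 1) = -1 := by
      split_ifs
      · exact neg_one_pow_eq_or ℤ b
      · exact Or.inl rfl
    rcases hε with h | h
    · rw [h]
      obtain ⟨W, -, hW, hWd⟩ := hF.hyp_sub ⊤ hN (c' * b) hlt
      exact ⟨W, hW.1, by rw [hWd, hDw], hF.typ_of_hyp W hW (by rw [hWd]; omega)⟩
    · rw [h]
      obtain ⟨W, -, hW, hWd, hWt⟩ := hF.ell_sub ⊤ hN (c' * b) hw1 hlt
      exact ⟨W, hW, by rw [hWd, hDw], hWt⟩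
  obtain ⟨H, hHnd, hHd, hHt⟩ := hH
  obtain ⟨g, hg1, hg2, hg3⟩ := hfpf H hHnd b hb1 (by rw [hHd, hcdef]) hHt
  obtain ⟨T, hT1, hT2, hT3, hT4⟩ := hext H hHnd g hg1 hg2 hg3
  refine ⟨T, hT1, hT2, ?_, ?_⟩
  · intro h1
    rw [h1, sub_self, LinearMap.ker_zero, finrank_top] at hT4
    omega
  · omega


end Cfsg.Agent.Lib.Helper80.Pi
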