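import Cfsg.Agent.Lib.Helper98.T73Defs
import Cfsg.Prelude.Def_GeometricClasses
import Cfsg.Agent.Lib.Helper66.QuadSTD
import Cfsg.Agent.Lib.Helper23.QuadBALPLUS

/-!
# Project T73 (S5973, helper98), piece CPXODD

If `x` is an isometry of the plus-type form in dimension `2d` with `x² = -1` and `-1` is not a
square, then `d` is even.  Proof by counting: the nonzero singular vectors are partitioned into
the sets `{a v + b x v} ∖ {0}` of size `q² - 1`, and `q² - 1` does not divide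
`q^(2d-1) + (q-1) q^(d-1) - 1` when `d` is odd.
-/

set_option autoImplicit false

namespace Cfsg.Agent.Lib.Helper98.T73

open Cfsg.Agent.Lib.Helper47 Module Polynomial

universe u

variable {F : Type u} [Field F] [Fintype F]

/-- arithmetic core -/
theorem cpxodd_arith (q : ℤ) (hq : 2 ≤ q) (e : ℕ) (M : ℤ)
    (h : q ^ (2 * (2 * e) + 1) + (q - 1) * (1 * q ^ (2 * e)) - 1 = (q ^ 2 - 1) * M) : False := by
  have h1 : q ^ 2 - 1 ∣ (q ^ 2) ^ (2 * e) - 1 := by
    have := sub_dvd_pow_sub_pow (q ^ 2) 1 (2 * e)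
    simpa using this
  have h2 : q ^ 2 - 1 ∣ (q ^ 2) ^ e - 1 := by
    have := sub_dvd_pow_sub_pow (q ^ 2) 1 e
    simpa using this
  have h3 : q ^ 2 - 1 ∣ 2 * q - 2 := by
    have e1 : 2 * q - 2 = (q ^ 2 - 1) * M - q * ((q ^ 2) ^ (2 * e) - 1)
        - (q - 1) * ((q ^ 2) ^ e - 1) := by
      rw [← h]
      ring
    rw [e1]
    exact dvd_sub (dvd_sub (dvd_mul_right _ _) (Dvd.dvd.mul_left h1 _)) (Dvd.dvd.mul_left h2 _)
  have h4 : q ^ 2 - 1 ≤ 2 * q - 2 := Int.le_of_dvd (by linarith) h3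
  nlinarith

/-- CPXODD -/
theorem cpx_even_d (h2 : (2 : F) ≠ 0) (hns : ¬ IsSquare (-1 : F)) (d : ℕ) (hd : 1 ≤ d)
    (x : GL (Fin d ⊕ Fin d) F) (hx : x ∈ Cfsg.Geo.omegaGL (Cfsg.quadFormPlus d F))
    (hx2 : (x : Matrix (Fin d ⊕ Fin d) (Fin d ⊕ Fin d) F)
        * (x : Matrix (Fin d ⊕ Fin d) (Fin d ⊕ Fin d) F)
      = (-1 : F) • (1 : Matrix (Fin d ⊕ Fin d) (Fin d ⊕ Fin d) F)) : Even d := by
  classical
  by_contra hodd
  rw [Nat.not_even_iff_odd] at hodd
  obtain ⟨e, rfl⟩ := hodd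
  have hQ := Cfsg.Agent.Lib.Helper66.QuadSTD.quadFormPlus_isQuad (F := F) (2 * e + 1)
  have htyp := Cfsg.Agent.Lib.Helper23.Quad.isTyp_quadFormPlus (F := F) (2 * e)
  have hiso : ∀ v, Cfsg.quadFormPlus (2 * e + 1) F
      (Matrix.mulVec
        (x : Matrix (Fin (2 * e + 1) ⊕ Fin (2 * e + 1)) (Fin (2 * e + 1) ⊕ Fin (2 * e + 1)) F) v)
        = Cfsg.quadFormPlus (2 * e + 1) F v := by
    obtain ⟨y, hy, hyx⟩ := hx
    intro v
    have h3 := y.2 v v
    rw [← hyx]
    exact h3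
  obtain ⟨Q, hQdef⟩ : ∃ Q, Q = Cfsg.quadFormPlus (2 * e + 1) F := ⟨_, rfl⟩
  obtain ⟨B, hBdef⟩ : ∃ B, B = Cfsg.Agent.Lib.Helper66.QuadSTD.plusB (2 * e + 1) F := ⟨_, rfl⟩
  rw [← hQdef, ← hBdef] at hQ
  rw [← hQdef] at htyp hiso
  obtain ⟨T, hT⟩ : ∃ T : (Fin (2 * e + 1) ⊕ Fin (2 * e + 1) → F) →ₗ[F]
      (Fin (2 * e + 1) ⊕ Fin (2 * e + 1) → F), T = Matrix.toLin' x.1 := ⟨_, rfl⟩
  have hTT : ∀ v, T (T v) = -v := by
    intro v
    rw [hT, Matrix.toLin'_apply, Matrix.toLin'_apply, Matrix.mulVec_mulVec, hx2]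
    simp [Matrix.neg_mulVec]
  have hTQ : ∀ v, Q (T v) = Q v := by
    intro v
    rw [hT, Matrix.toLin'_apply]
    exact hiso v
  have hBT : ∀ v, B v (T v) = 0 := by
    intro v
    have h3 := hQ.isometry hQ T hTQ v (T v)
    rw [hTT, hQ.form.neg_right] at h3
    have h4 := hQ.form.symm v (T v)
    simp only [RingHom.id_apply, one_mul] at h4
    rw [h4] at h3
    have h5 : (2 : F) * B v (T v) = 0 := by linear_combination -h3
    rcases mul_eq_zero.mp h5 with h6 | h6
    · exact absurd h6 h2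
    · exact h6
  have hQab : ∀ (a b : F) v, Q (a • v + b • T v) = (a ^ 2 + b ^ 2) * Q v := by
    intro a b v
    rw [hQ.polar, hQ.smul, hQ.smul, hTQ, hQ.form.smul_left, hQ.form.smul_right, hBT]
    simp only [RingHom.id_apply]
    ring
  have hsq : ∀ a b : F, a ^ 2 + b ^ 2 = 0 → a = 0 ∧ b = 0 := by
    intro a b hab
    by_cases hb : b = 0
    · rw [hb] at hab
      simp at hab
      exact ⟨hab, hb⟩
    · exfalso
      apply hns
      refine ⟨a / b, ?_⟩
      field_simp
      linear_combination -hab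
  -- the class of `v`
  let f : (Fin (2 * e + 1) ⊕ Fin (2 * e + 1) → F) → Finset (Fin (2 * e + 1) ⊕ Fin (2 * e + 1) → F) :=
    fun v => Finset.univ.image (fun ab : F × F => ab.1 • v + ab.2 • T v)
  have hfmem : ∀ v w, w ∈ f v ↔ ∃ a b : F, a • v + b • T v = w := by
    intro v w
    simp only [f, Finset.mem_image, Finset.mem_univ, true_and, Prod.exists]
  have hfsub : ∀ v w, w ∈ f v → f w ⊆ f v := by
    intro v w hw u hu
    obtain ⟨a, b, rfl⟩ := (hfmem v w).mp hw
    obtain ⟨c, g, rfl⟩ := (hfmem _ u).mp hu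
    rw [hfmem]
    refine ⟨c * a - g * b, c * b + g * a, ?_⟩
    rw [map_add, map_smul, map_smul, hTT]
    module
  have hfeq : ∀ v w, w ∈ f v → w ≠ 0 → f w = f v := by
    intro v w hw hw0
    apply Finset.Subset.antisymm (hfsub v w hw)
    apply hfsub
    obtain ⟨a, b, rfl⟩ := (hfmem v w).mp hw
    have hne : a ^ 2 + b ^ 2 ≠ 0 := by
      intro h0
      obtain ⟨ha, hb⟩ := hsq a b h0
      apply hw0
      rw [ha, hb]
      simp
    rw [hfmem]
    refine ⟨a / (a ^ 2 + b ^ 2), -b / (a ^ 2 + b ^ 2), ?_⟩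
    rw [map_add, map_smul, map_smul, hTT]
    have h3 : (a / (a ^ 2 + b ^ 2)) • (a • v + b • T v) + (-b / (a ^ 2 + b ^ 2)) • (a • T v + b • -v)
        = ((a ^ 2 + b ^ 2) / (a ^ 2 + b ^ 2)) • v := by
      module
    rw [h3, div_self hne, one_smul]
  have hfcard : ∀ v, v ≠ 0 → (f v).card = Fintype.card F ^ 2 := by
    intro v hv
    have hinj : Function.Injective (fun ab : F × F => ab.1 • v + ab.2 • T v) := by
      rintro ⟨a, b⟩ ⟨a', b'⟩ hab
      simp only at hab
      have h3 : (a - a') • v + (b - b') • T v = 0 := by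
        rw [sub_smul, sub_smul]
        have h4 : a • v - a' • v + (b • T v - b' • T v)
            = (a • v + b • T v) - (a' • v + b' • T v) := by abel
        rw [h4, hab, sub_self]
      -- apply the inversion trick
      have h5 := congrArg T h3
      rw [map_add, map_smul, map_smul, hTT, map_zero] at h5
      have h6 : ((a - a') ^ 2 + (b - b') ^ 2) • v = 0 := by
        have h7 : ((a - a') ^ 2 + (b - b') ^ 2) • v
            = (a - a') • ((a - a') • v + (b - b') • T v)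
              - (b - b') • ((a - a') • T v + (b - b') • -v) := by
          module
        rw [h7, h3, h5, smul_zero, smul_zero, sub_zero]
      rcases smul_eq_zero.mp h6 with h8 | h8
      · obtain ⟨h9, h10⟩ := hsq _ _ h8
        rw [sub_eq_zero.mp h9, sub_eq_zero.mp h10]
      · exact absurd h8 hv
    show (Finset.univ.image (fun ab : F × F => ab.1 • v + ab.2 • T v)).card = _
    rw [Finset.card_image_of_injective _ hinj, Finset.card_univ, Fintype.card_prod, sq]
  -- the nonzero singular vectors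
  let S : Finset (Fin (2 * e + 1) ⊕ Fin (2 * e + 1) → F) :=
    (Finset.univ.filter (fun v => Q v = 0)).erase 0
  have hSmem : ∀ v, v ∈ S ↔ v ≠ 0 ∧ Q v = 0 := by
    intro v
    simp only [S, Finset.mem_erase, Finset.mem_filter, Finset.mem_univ, true_and]
  have hfiber : ∀ v ∈ S, (S.filter (fun w => f w = f v)).card = Fintype.card F ^ 2 - 1 := by
    intro v hv
    obtain ⟨hv0, hvQ⟩ := (hSmem v).mp hv
    have h3 : S.filter (fun w => f w = f v) = (f v).erase 0 := by
      ext w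
      rw [Finset.mem_filter, hSmem, Finset.mem_erase]
      constructor
      · rintro ⟨⟨hw0, hwQ⟩, hfw⟩
        refine ⟨hw0, ?_⟩
        rw [← hfw, hfmem]
        exact ⟨1, 0, by simp⟩
      · rintro ⟨hw0, hw⟩
        refine ⟨⟨hw0, ?_⟩, hfeq v w hw hw0⟩
        obtain ⟨a, b, rfl⟩ := (hfmem v w).mp hw
        rw [hQab, hvQ, mul_zero]
    rw [h3, Finset.card_erase_of_mem, hfcard v hv0]
    rw [hfmem]
    exact ⟨0, 0, by simp⟩
  have hScard : S.card = (S.image f).card * (Fintype.card F ^ 2 - 1) := by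
    rw [Finset.card_eq_sum_card_image f S]
    rw [Finset.sum_const_nat (m := Fintype.card F ^ 2 - 1)]
    intro c hc
    obtain ⟨v, hv, rfl⟩ := Finset.mem_image.mp hc
    exact hfiber v hv
  -- the count of singular vectors
  have hcount : ((Finset.univ.filter (fun v : Fin (2 * e + 1) ⊕ Fin (2 * e + 1) → F => Q v = 0)).card : ℤ)
      = (Fintype.card F : ℤ) ^ (2 * (2 * e) + 1)
        + ((Fintype.card F : ℤ) - 1) * (1 * (Fintype.card F : ℤ) ^ (2 * e)) := by
    have h3 := htyp.1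
    rw [← h3, Nat.card_eq_fintype_card, Fintype.card_subtype]
  have h0mem : (0 : Fin (2 * e + 1) ⊕ Fin (2 * e + 1) → F) ∈
      Finset.univ.filter (fun v : Fin (2 * e + 1) ⊕ Fin (2 * e + 1) → F => Q v = 0) := by
    rw [Finset.mem_filter]
    exact ⟨Finset.mem_univ _, hQ.map_zero⟩
  have hS1 : S.card + 1 = (Finset.univ.filter
      (fun v : Fin (2 * e + 1) ⊕ Fin (2 * e + 1) → F => Q v = 0)).card := by
    show ((Finset.univ.filter (fun v => Q v = 0)).erase 0).card + 1 = _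
    rw [Finset.card_erase_of_mem h0mem]
    have := Finset.card_pos.mpr ⟨_, h0mem⟩
    omega
  have hq2 : 2 ≤ (Fintype.card F : ℤ) := by
    have := Fintype.one_lt_card (α := F)
    exact_mod_cast this
  apply cpxodd_arith (Fintype.card F : ℤ) hq2 e ((S.image f).card : ℤ)
  have h3 : (S.card : ℤ) + 1 = (Fintype.card F : ℤ) ^ (2 * (2 * e) + 1)
        + ((Fintype.card F : ℤ) - 1) * (1 * (Fintype.card F : ℤ) ^ (2 * e)) := by
    rw [← hcount, ← hS1]
    push_cast
    ring
  have h4 : (S.card : ℤ) = ((S.image f).card : ℤ) * ((Fintype.card F : ℤ) ^ 2 - 1) := by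
    rw [hScard]
    have h5 : 1 ≤ Fintype.card F ^ 2 := Nat.one_le_pow _ _ Fintype.card_pos
    push_cast [Nat.cast_sub h5]
    ring
  linear_combination (-1 : ℤ) * h3 + h4

end Cfsg.Agent.Lib.Helper98.T73
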