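import Cfsg.Agent.Lib.Helper22.W2Defs
import Cfsg.Agent.Lib.Helper83.Linear

/-!
Project W2 (S4707, helper22), piece DEGF: the degree equation in Fourier form.
-/

set_option autoImplicit false

namespace Cfsg.Agent.Lib.Helper80.W2

open Cfsg Cfsg.Agent.Lib.Helper83 Cfsg.Agent.Lib.Helper22.W2
open scoped ComplexConjugate

universe u

variable {G : Type u} [Group G] [Fintype G]

/-- PIECE DEGF -/
theorem degF (p : ℕ) [Fact p.Prime] (f : ZMod p → ℂ) :
    ∑ u : ZMod p, f u = (p : ℂ) * f 0 + ∑ v : ZMod p, (if v = 0 then 0 else f v - f 0) := by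
  have h1 : ∑ v : ZMod p, (if v = 0 then 0 else f v - f 0) = ∑ v : ZMod p, (f v - f 0) := by
    apply Finset.sum_congr rfl
    intro v _
    split_ifs with h
    · rw [h, sub_self]
    · rfl
  rw [h1, Finset.sum_sub_distrib, Finset.sum_const, Finset.card_univ, ZMod.card, nsmul_eq_mul]
  ring

end Cfsg.Agent.Lib.Helper80.W2
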